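import Cfsg.Agent.H39.PSSpec

/-! PS tower (S0725), slot `TRI`: the graph attached to a group that is `2`- but not
`3`-transitive outside `S`. -/

set_option autoImplicit false
set_option linter.unusedSectionVars false

namespace H94.PS

open Equiv MulAction Finset H39.PS
open scoped Classical

universe u

variable {α : Type u} [Fintype α] [DecidableEq α] {G : Subgroup (Perm α)} {S : Finset α}
  {R : α → α → α → Prop} {g : Perm α} {x y z a b : α}

/-- distinct triples outside `S` -/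
def D3 (S : Finset α) (x y z : α) : Prop := x ∉ S ∧ y ∉ S ∧ z ∉ S ∧ x ≠ y ∧ x ≠ z ∧ y ≠ z

structure Good (G : Subgroup (Perm α)) (S : Finset α) (R : α → α → α → Prop) : Prop where
  inv : ∀ g ∈ fx G S, ∀ x y z, R (g x) (g y) (g z) ↔ R x y z
  ex1 : ∃ x y z, D3 S x y z ∧ R x y z
  ex0 : ∃ x y z, D3 S x y z ∧ ¬ R x y z
  sym : (∀ x y z, D3 S x y z → (R x y z ↔ R y x z)) ∨ ∀ x y z, D3 S x y z → (R x y z ↔ ¬ R y x z)

theorem nm (hg : g ∈ fx G S) : g x ∉ S ↔ x ∉ S := not_congr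
  ⟨fun h => by rwa [← g.injective ((mem_fx.1 hg).2 _ h)], fun h => by rwa [(mem_fx.1 hg).2 _ h]⟩

theorem d3 (hg : g ∈ fx G S) : D3 S (g x) (g y) (g z) ↔ D3 S x y z := by
  simp only [D3, nm hg, ne_eq, g.injective.eq_iff]

theorem D3.swap (h : D3 S x y z) : D3 S y x z :=
  ⟨h.2.1, h.1, h.2.2.1, h.2.2.2.1.symm, h.2.2.2.2.2, h.2.2.2.2.1⟩

theorem Good.not (h : Good G S R) : Good G S fun x y z => ¬ R x y z :=
  ⟨fun g hg x y z => not_congr (h.inv g hg x y z), h.ex0, by simpa using h.ex1,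
    h.sym.imp (fun k x y z d => not_congr (k x y z d)) fun k x y z d => not_congr (k x y z d)⟩

theorem exists_good (h : ¬ Three G S) : ∃ R, Good G S R := by
  simp only [Three, not_forall] at h
  obtain ⟨a, ha, b, hb, c, hc, a', ha', b', hb', c', hc', n1, n2, n3, n4, n5, n6, h⟩ := h
  let R : α → α → α → Prop := fun x y z => ∃ g ∈ fx G S, g a = x ∧ g b = y ∧ g c = z
  have i1 : ∀ g ∈ fx G S, ∀ x y z, R x y z → R (g x) (g y) (g z) := by
    rintro g hg _ _ _ ⟨k, hk, rfl, rfl, rfl⟩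
    exact ⟨g * k, mul_mem hg hk, rfl, rfl, rfl⟩
  have inv : ∀ g ∈ fx G S, ∀ x y z, R (g x) (g y) (g z) ↔ R x y z := fun g hg x y z =>
    ⟨fun k => by simpa using i1 g⁻¹ (inv_mem hg) _ _ _ k, i1 g hg x y z⟩
  have d : D3 S a b c := ⟨ha, hb, hc, n1, n2, n3⟩
  have d' : D3 S a' b' c' := ⟨ha', hb', hc', n4, n5, n6⟩
  have r : R a b c := ⟨1, one_mem _, rfl, rfl, rfl⟩
  by_cases k : ∀ x y z, D3 S x y z → R x y z ∨ R y x z
  · refine ⟨R, inv, ⟨_, _, _, d, r⟩, ⟨_, _, _, d', h⟩, Or.inr fun x y z e =>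
      ⟨fun r1 r2 => ?_, (k x y z e).resolve_right⟩⟩
    obtain ⟨g, hg, rfl, rfl, rfl⟩ := r1
    obtain ⟨l, hl, rfl, rfl, rfl⟩ := (k _ _ _ d').resolve_left h
    exact h (i1 l hl _ _ _ ((inv g hg _ _ _).1 r2))
  · push Not at k
    obtain ⟨x, y, z, e, k⟩ := k
    exact ⟨fun x y z => R x y z ∨ R y x z, fun g hg x y z => or_congr (inv g hg x y z)
      (inv g hg y x z), ⟨_, _, _, d, Or.inl r⟩, ⟨x, y, z, e, not_or.2 k⟩,
      Or.inl fun _ _ _ _ => or_comm⟩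

/-- the third points -/
noncomputable def A3 (S : Finset α) (R : α → α → α → Prop) (x y : α) : Finset α :=
  univ.filter fun z => D3 S x y z ∧ R x y z
/-- the second points -/
noncomputable def A2 (S : Finset α) (R : α → α → α → Prop) (x z : α) : Finset α :=
  univ.filter fun y => D3 S x y z ∧ R x y z

theorem mem_A3 : z ∈ A3 S R x y ↔ D3 S x y z ∧ R x y z := by simp [A3]

theorem a3_add (hx : x ∉ S) (hy : y ∉ S) (n : x ≠ y) :
    (A3 S R x y).card + (A3 S (fun x y z => ¬ R x y z) x y).card = (S ∪ {x, y})ᶜ.card := by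
  rw [← card_filter_add_card_filter_not (s := (S ∪ {x, y})ᶜ) fun z => R x y z]
  congr 2 <;> ext z <;> simp only [A3, D3, mem_filter, mem_univ, true_and, mem_compl, mem_union,
    mem_insert, mem_singleton, not_or, ne_eq, hx, hy, n, not_false_iff, @eq_comm _ z]

theorem card_W (hx : x ∉ S) (hy : y ∉ S) (n : x ≠ y) : (S ∪ {x, y})ᶜ.card = Sᶜ.card - 2 := by
  rw [card_compl, card_compl, card_union_of_disjoint (by simp [hx, hy]), card_pair n,
    Nat.sub_add_eq]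

theorem const (h2 : Two G S) (h : Good G S R) : ∃ v, 1 ≤ v ∧
    (∀ x ∉ S, ∀ y ∉ S, x ≠ y → (A3 S R x y).card = v) ∧
    ∀ x ∉ S, ∀ z ∉ S, x ≠ z → (A2 S R x z).card = v := by
  obtain ⟨a, b, c, d, r⟩ := h.ex1
  have k3 : ∀ x ∉ S, ∀ y ∉ S, x ≠ y → (A3 S R x y).card = (A3 S R a b).card :=
    fun x hx y hy n => by
      obtain ⟨g, hg, rfl, rfl⟩ := h2 a d.1 b d.2.1 x hx y hy d.2.2.2.1 n
      exact (card_equiv g fun z => by simp only [A3, mem_filter, mem_univ, d3 hg, h.inv g hg]).symm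
  have k2 : ∀ x ∉ S, ∀ y ∉ S, x ≠ y → (A2 S R x y).card = (A2 S R a b).card :=
    fun x hx y hy n => by
      obtain ⟨g, hg, rfl, rfl⟩ := h2 a d.1 b d.2.1 x hx y hy d.2.2.2.1 n
      exact (card_equiv g fun z => by simp only [A2, mem_filter, mem_univ, d3 hg, h.inv g hg]).symm
  have e := card_mul_eq_card_mul (s := Sᶜ.erase a) (t := Sᶜ.erase a)
    (fun y z => D3 S a y z ∧ R a y z) (m := (A3 S R a b).card) (n := (A2 S R a b).card)
    (fun y hy => by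
      rw [← k3 a d.1 y (mem_compl.1 (mem_erase.1 hy).2) (mem_erase.1 hy).1.symm]
      congr 1; ext z
      simp only [mem_bipartiteAbove, A3, mem_filter, mem_univ, true_and, and_iff_right_iff_imp]
      exact fun k => mem_erase.2 ⟨k.1.2.2.2.2.1.symm, mem_compl.2 k.1.2.2.1⟩)
    (fun y hy => by
      rw [← k2 a d.1 y (mem_compl.1 (mem_erase.1 hy).2) (mem_erase.1 hy).1.symm]
      congr 1; ext z
      simp only [mem_bipartiteBelow, A2, mem_filter, mem_univ, true_and, and_iff_right_iff_imp]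
      exact fun k => mem_erase.2 ⟨k.1.2.2.2.1.symm, mem_compl.2 k.1.2.1⟩)
  have e' := Nat.eq_of_mul_eq_mul_left
    (card_pos.2 ⟨b, mem_erase.2 ⟨d.2.2.2.1.symm, mem_compl.2 d.2.1⟩⟩) e
  exact ⟨(A3 S R a b).card, card_pos.2 ⟨c, mem_A3.2 ⟨d, r⟩⟩, k3, fun x hx z hz n => by
    rw [k2 x hx z hz n, e']⟩

/-- the graph -/
def Gm (S : Finset α) (R : α → α → α → Prop) (a b x y : α) : Prop :=
  D3 S x y a ∧ D3 S x y b ∧ ¬ (R x y a ↔ R x y b)

/-- the ordered edges -/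
noncomputable def Ed (S : Finset α) (R : α → α → α → Prop) (a b : α) : Finset (α × α) :=
  univ.filter fun p => Gm S R a b p.1 p.2

theorem mem_Ed {p : α × α} : p ∈ Ed S R a b ↔ Gm S R a b p.1 p.2 := by simp [Ed]

theorem edges (h2 : Two G S) (h : Good G S R) {v v' : ℕ}
    (k : ∀ x ∉ S, ∀ y ∉ S, x ≠ y → (A3 S R x y).card = v)
    (k' : ∀ x ∉ S, ∀ y ∉ S, x ≠ y → (A3 S (fun x y z => ¬ R x y z) x y).card = v')
    (ha : a ∉ S) (hb : b ∉ S) (n : a ≠ b) : 2 * v * v' ≤ (Ed S R a b).card := by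
  let P : Finset (α × α) := univ.filter fun p => p.1 ∉ S ∧ p.2 ∉ S ∧ p.1 ≠ p.2
  have mP : ∀ {p : α × α}, p ∈ P ↔ p.1 ∉ S ∧ p.2 ∉ S ∧ p.1 ≠ p.2 := fun {p} => by simp [P]
  have e := card_mul_le_card_mul (s := P) (t := P) (fun q p => Gm S R p.1 p.2 q.1 q.2)
    (m := 2 * v * v') (n := (Ed S R a b).card)
    (fun q hq => by
      obtain ⟨h1, h3, h4⟩ := mP.1 hq
      have d : Disjoint (A3 S R q.1 q.2 ×ˢ A3 S (fun x y z => ¬ R x y z) q.1 q.2)
          (A3 S (fun x y z => ¬ R x y z) q.1 q.2 ×ˢ A3 S R q.1 q.2) :=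
        disjoint_left.2 fun p k1 k2 => (mem_A3.1 (mem_product.1 k2).1).2
          (mem_A3.1 (mem_product.1 k1).1).2
      have c := card_union_of_disjoint d
      rw [card_product, card_product, k _ h1 _ h3 h4, k' _ h1 _ h3 h4] at c
      refine le_trans (by rw [c]; ring_nf; rfl) (card_le_card fun p hp => ?_)
      rw [mem_bipartiteAbove, mP]
      rcases mem_union.1 hp with hp | hp <;>
        obtain ⟨⟨d1, r1⟩, d2, r2⟩ := (mem_product.1 hp).imp mem_A3.1 mem_A3.1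
      · exact ⟨⟨d1.2.2.1, d2.2.2.1, fun e => r2 (e ▸ r1)⟩, d1, d2, fun e => r2 (e.1 r1)⟩
      · exact ⟨⟨d1.2.2.1, d2.2.2.1, fun e => r1 (e ▸ r2)⟩, d1, d2, fun e => r1 (e.2 r2)⟩)
    (fun p hp => by
      obtain ⟨h1, h3, h4⟩ := mP.1 hp
      obtain ⟨g, hg, e1, e2⟩ := h2 a ha b hb _ h1 _ h3 n h4
      rw [card_equiv (s := Ed S R a b) (t := Ed S R p.1 p.2) (g.prodCongr g) fun z => by
        simp only [mem_Ed, Gm, ← e1, ← e2, prodCongr_apply, Prod.map_fst,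
          Prod.map_snd, d3 hg, h.inv g hg]]
      refine card_le_card fun q hq => ?_
      rw [mem_bipartiteBelow] at hq
      exact mem_Ed.2 hq.2)
  exact Nat.le_of_mul_le_mul_left e (card_pos.2 ⟨(a, b), mP.2 ⟨ha, hb, n⟩⟩)

theorem main (h2 : Two G S) (h : Good G S R) {v v' : ℕ}
    (k : ∀ x ∉ S, ∀ y ∉ S, x ≠ y → (A3 S R x y).card = v)
    (k2 : ∀ x ∉ S, ∀ y ∉ S, x ≠ y → (A2 S R x y).card = v)
    (k' : ∀ x ∉ S, ∀ y ∉ S, x ≠ y → (A3 S (fun x y z => ¬ R x y z) x y).card = v')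
    (ha : a ∉ S) (hb : b ∉ S) (n : a ≠ b) :
    Gr (Gm S R a b) (S ∪ {a, b})ᶜ v ∧ ∀ U, S ⊆ U → un G a b U ≤ ind (Gm S R a b) {a, b} U := by
  refine ⟨⟨fun x y ⟨d1, d2, e⟩ => ⟨d1.swap, d2.swap, ?_⟩, fun x y ⟨d1, d2, _⟩ => ?_, fun x => ?_,
    ?_⟩, fun U hU => ?_⟩
  · rcases h.sym with s | s
    · rwa [← s x y a d1, ← s x y b d2]
    · rwa [s x y a d1, s x y b d2, not_iff_not] at e
  · simp only [mem_compl, mem_union, mem_insert, mem_singleton, not_or]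
    exact ⟨⟨d1.1, d1.2.2.2.2.1, d2.2.2.2.2.1⟩, ⟨d1.2.1, d1.2.2.2.2.2, d2.2.2.2.2.2⟩, d1.2.2.2.1⟩
  · rcases (univ.filter fun y => Gm S R a b x y).eq_empty_or_nonempty with e | ⟨y, hy⟩
    · rw [e]; exact Nat.zero_le _
    obtain ⟨d1, d2, -⟩ := (mem_filter.1 hy).2
    refine (card_le_card (t := A2 S R x a ∪ A2 S R x b) fun z hz => ?_).trans
      ((card_union_le _ _).trans (by
        rw [k2 x d1.1 a ha d1.2.2.2.2.1, k2 x d1.1 b hb d2.2.2.2.2.1, two_mul]))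
    obtain ⟨d3, d4, e⟩ := (mem_filter.1 hz).2
    by_cases r : R x z a
    · exact mem_union_left _ (mem_filter.2 ⟨mem_univ _, d3, r⟩)
    · exact mem_union_right _ (mem_filter.2 ⟨mem_univ _, d4, by tauto⟩)
  · rw [← a3_add (R := R) ha hb n, k a ha b hb n, k' a ha b hb n, Nat.add_sub_cancel_left]
    exact edges h2 h k k' ha hb n
  · unfold un ind
    split_ifs with c1 c2
    · exact le_rfl
    · obtain ⟨h1, h3, g, hg, e⟩ := c1
      refine (c2 ⟨by simp [h1, h3], fun x hx y hy c => c.2.2 ?_⟩).elim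
      rw [mem_fx] at hg
      rw [← h.inv g (mem_fx.2 ⟨hg.1, fun s hs => hg.2 s (hU hs)⟩) x y a, hg.2 x hx, hg.2 y hy, e]
    · exact zero_le_one
    · exact le_rfl

theorem jobTri : Tri.{u} := by
  intro α _ _ G S h2 h3
  obtain ⟨R, h⟩ := exists_good h3
  obtain ⟨v, v1, k, k2⟩ := const h2 h
  obtain ⟨v', v1', k', k2'⟩ := const h2 h.not
  obtain ⟨a, b, -, ⟨ha, hb, -, n, -⟩, -⟩ := h.ex1
  have e := a3_add (R := R) ha hb n
  rw [k a ha b hb n, k' a ha b hb n, card_W ha hb n] at e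
  rcases le_total v v' with c | c
  · exact ⟨v, v1, by omega, fun a ha b hb n => ⟨_, main h2 h k k2 k' ha hb n⟩⟩
  · exact ⟨v', v1', by omega, fun a ha b hb n => ⟨_, main h2 h.not k' k2' (by simpa using k) ha hb n⟩⟩

end H94.PS
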